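import Mathlib
import Cfsg.Agent.Lib.Helper94.OMG.Defs
import Cfsg.Agent.Lib.Helper66.OPG.Gens
import Cfsg.Agent.Lib.Helper40.SLTwoGen
import Cfsg.Agent.Lib.Helper40.SLTwoGen2

/-!
# Project OMG (S2415): package [GENSM]

Two generators of `SL_{N+1}(F)` (`F` finite, `N ≥ 2`), the first of order dividing
`A ∣ q (q - 1)` and supported on the top left `2 × 2` block
(port of `Helper66.OPG.pkgGens` without the mixing matrix).
-/

set_option autoImplicit false
open scoped Matrix

namespace Cfsg.Agent.Lib.Helper29.OMG

open Matrix Cfsg.Agent.Lib.Helper40.SLTwoGen Cfsg.Agent.Lib.Helper66.OPG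

universe u

/-- [GENSM] -/
theorem pkgGensM : Cfsg.Agent.Lib.Helper94.OMG.PkgGensM.{u} := by
  intro F _ _ N hN
  obtain ⟨n, rfl⟩ : ∃ n, N = n + 1 := ⟨N - 1, by omega⟩
  have hn : 1 ≤ n + 1 := by omega
  have h01 : (0 : Fin (n + 1 + 1)) ≠ 1 := (one_ne_zero_fin hn).symm
  by_cases hK : 3 < Fintype.card F
  · -- large field
    obtain ⟨k, hk⟩ := IsCyclic.exists_generator (α := Fˣ)
    refine ⟨torSL n k, Matrix.SpecialLinearGroup.transvection h01 1 * coxSL (n + 1),
      Fintype.card F - 1, Dvd.intro_left _ rfl, ?_, torSL_pow n k, ?_⟩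
    · exact closure_eq_top_of_torus hK hn k hk (torSL n k)
        (Matrix.SpecialLinearGroup.transvection h01 1) (coxSL (n + 1)) rfl rfl rfl
    · intro i hi
      exact torSL_std n k i hi
  · -- small field
    rw [not_lt] at hK
    have hx : Matrix.SpecialLinearGroup.transvection h01 (1 : F) ^ Fintype.card F = 1 := by
      rw [← transvection_natCast_eq_pow, FiniteField.cast_card_eq_zero,
        Matrix.SpecialLinearGroup.transvection_coeff_zero]
    have htop : Subgroup.closure ({Matrix.SpecialLinearGroup.transvection h01 (1 : F),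
        coxSL (n + 1)} : Set (Matrix.SpecialLinearGroup (Fin (n + 1 + 1)) F)) = ⊤ := by
      apply eq_top_of_cox_of_root hn _ (coxSL (n + 1)) rfl
        (Subgroup.subset_closure (by simp))
      intro h01' c
      obtain ⟨m, rfl⟩ := exists_natCast_of_card_le_three hK c
      rw [transvection_natCast_eq_pow]
      exact Subgroup.pow_mem _ (Subgroup.subset_closure (by simp)) m
    have hstd : ∀ i : Fin (n + 1 + 1), 2 ≤ i.val →
        (∀ j, (Matrix.SpecialLinearGroup.transvection h01 (1 : F) :
            Matrix (Fin (n + 1 + 1)) (Fin (n + 1 + 1)) F) i j =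
          (1 : Matrix (Fin (n + 1 + 1)) (Fin (n + 1 + 1)) F) i j) ∧
        (∀ j, (Matrix.SpecialLinearGroup.transvection h01 (1 : F) :
            Matrix (Fin (n + 1 + 1)) (Fin (n + 1 + 1)) F) j i =
          (1 : Matrix (Fin (n + 1 + 1)) (Fin (n + 1 + 1)) F) j i) := by
      intro i hi
      have hi0 : i ≠ 0 := by
        intro h
        rw [h] at hi
        simp at hi
      have hi1 : i ≠ 1 := by
        intro h
        rw [h, Fin.val_one] at hi
        omega
      constructor
      · intro j
        rw [Matrix.SpecialLinearGroup.transvection_coe, Matrix.add_apply,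
          Matrix.single_apply_of_row_ne (Ne.symm hi0), add_zero]
      · intro j
        rw [Matrix.SpecialLinearGroup.transvection_coe, Matrix.add_apply,
          Matrix.single_apply_of_col_ne _ _ (Ne.symm hi1), add_zero]
    exact ⟨Matrix.SpecialLinearGroup.transvection h01 1, coxSL (n + 1), Fintype.card F,
      Dvd.intro _ rfl, htop, hx, hstd⟩

end Cfsg.Agent.Lib.Helper29.OMG
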